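import Cfsg.Agent.Lib.Helper94.SpRow.Defs4

set_option autoImplicit false

namespace Cfsg.Agent.Lib.Helper97.SpRow

open Cfsg Cfsg.Geo Matrix Cfsg.Agent.Lib.Helper94.SpRow
open scoped MatrixGroups

variable {F : Type*} [Field F]

theorem KD_ind (h2 : (2 : F) = 0) {K : Subalgebra F (Matrix (Fin 2 ⊕ Fin 2) (Fin 2 ⊕ Fin 2) F)}
    (D : KD K) {v : Fin 2 ⊕ Fin 2 → F} (hv : v ≠ 0) (x y : F) (h : x • v + y • (D.θ *ᵥ v) = 0) :
    x = 0 ∧ y = 0 := by
  -- apply θ to the relation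
  have hθθ : D.θ *ᵥ (D.θ *ᵥ v) = D.a • (D.θ *ᵥ v) + D.b • v := by
    rw [Matrix.mulVec_mulVec, D.sq, Matrix.add_mulVec, Matrix.smul_mulVec, Matrix.smul_mulVec,
      Matrix.one_mulVec]
  have h' : x • (D.θ *ᵥ v) + y • (D.a • (D.θ *ᵥ v) + D.b • v) = 0 := by
    have := congrArg (fun t => D.θ *ᵥ t) h
    simp only [Matrix.mulVec_add, Matrix.mulVec_smul, Matrix.mulVec_zero, hθθ] at this
    exact this
  -- combine: (x + a y) * (rel) - y * (rel')
  have key : (x ^ 2 + D.a * x * y + D.b * y ^ 2) • v = 0 := by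
    have e : (x ^ 2 + D.a * x * y + D.b * y ^ 2) • v =
        (x + D.a * y) • (x • v + y • (D.θ *ᵥ v)) -
          y • (x • (D.θ *ᵥ v) + y • (D.a • (D.θ *ᵥ v) + D.b • v)) + ((2 : F) * (D.b * y ^ 2)) • v := by
      module
    rw [e, h, h', h2]
    simp
  have hz : x ^ 2 + D.a * x * y + D.b * y ^ 2 = 0 := by
    rcases smul_eq_zero.mp key with h0 | h0
    · exact h0
    · exact absurd h0 hv
  exact D.aniso x y hz

end Cfsg.Agent.Lib.Helper97.SpRow
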