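import Cfsg.Agent.Lib.Helper94.SpRow.Defs4
import Cfsg.Agent.Lib.Helper94.SympWrap

set_option autoImplicit false

namespace Cfsg.Agent.Lib.Helper97.SpRow

open Cfsg Cfsg.Geo Matrix Cfsg.Agent.Lib.Helper94.SpRow Module
open scoped MatrixGroups

variable {F : Type*} [Field F]

theorem lagr (u p w : Fin 2 ⊕ Fin 2 → F) (hup : sympForm 2 F u p = 0)
    (hind : ∀ x y : F, x • u + y • p = 0 → x = 0 ∧ y = 0)
    (h1 : sympForm 2 F w u = 0) (h2 : sympForm 2 F w p = 0) : ∃ x y : F, w = x • u + y • p := by
  classical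
  set B := Cfsg.Agent.Lib.Helper94.sympB 2 F with hB
  have hBa : ∀ a b, B a b = sympForm 2 F a b := fun a b => Cfsg.Agent.Lib.Helper94.sympB_apply 2 a b
  set W : Submodule F (Fin 2 ⊕ Fin 2 → F) := Submodule.span F {u, p} with hW
  have hli : LinearIndependent F ![u, p] := by
    rw [LinearIndependent.pair_iff]
    intro s t hst
    exact hind s t hst
  have hWr : finrank F W = 2 := by
    have h := finrank_span_eq_card hli
    have e : Set.range ![u, p] = {u, p} := by
      simp [Matrix.range_cons, Matrix.range_empty, Set.pair_comm]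
    rw [e] at h
    simpa using h
  have hV : finrank F (Fin 2 ⊕ Fin 2 → F) = 4 := by simp
  have hO : finrank F (B.orthogonal W) = 4 - 2 := by
    rw [LinearMap.BilinForm.finrank_orthogonal (Cfsg.Agent.Lib.Helper94.sympB_nondegenerate 2) W,
      hV, hWr]
  have hpu : sympForm 2 F p u = 0 := by rw [sf_swap, hup, neg_zero]
  have hle : W ≤ B.orthogonal W := by
    intro a ha
    rw [LinearMap.BilinForm.mem_orthogonal_iff]
    intro b hb
    obtain ⟨x, y, rfl⟩ := Submodule.mem_span_pair.mp ha
    obtain ⟨x', y', rfl⟩ := Submodule.mem_span_pair.mp hb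
    show B _ _ = 0
    rw [hBa]
    simp only [sf_add_left, sf_add_right, sf_smul_left, sf_smul_right, sf_self, hup, hpu, mul_zero,
      add_zero]
  have heq : W = B.orthogonal W := Submodule.eq_of_le_of_finrank_eq hle (by rw [hWr, hO])
  have hw : w ∈ B.orthogonal W := by
    rw [LinearMap.BilinForm.mem_orthogonal_iff]
    intro b hb
    obtain ⟨x', y', rfl⟩ := Submodule.mem_span_pair.mp hb
    show B _ _ = 0
    rw [hBa]
    have h1' : sympForm 2 F u w = 0 := by rw [sf_swap, h1, neg_zero]
    have h2' : sympForm 2 F p w = 0 := by rw [sf_swap, h2, neg_zero]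
    simp only [sf_add_left, sf_smul_left, h1', h2', mul_zero, add_zero]
  rw [← heq] at hw
  obtain ⟨x, y, h⟩ := Submodule.mem_span_pair.mp hw
  exact ⟨x, y, h.symm⟩

end Cfsg.Agent.Lib.Helper97.SpRow
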