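import Mathlib
import Cfsg.Prelude.Def_GeometricClasses

set_option autoImplicit false

namespace Cfsg.Agent.Lib.Helper97.SpRow

open Cfsg Cfsg.Geo

theorem isMaximalIn_conj {G : Type*} [Group G] (K H : Subgroup G) (g : G) (hg : g ∈ K)
    (h : IsMaximalIn K (H ⊓ K)) : IsMaximalIn K (H.map (MulAut.conj g).toMonoidHom ⊓ K) := by
  have hmem : ∀ (A : Subgroup G) (x : G), x ∈ A.map (MulAut.conj g).toMonoidHom ↔ g⁻¹ * x * g ∈ A := by
    intro A x
    constructor
    · rintro ⟨y, hy, rfl⟩
      have : g⁻¹ * ((MulAut.conj g).toMonoidHom y) * g = y := by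
        show g⁻¹ * (g * y * g⁻¹) * g = y
        group
      rw [this]; exact hy
    · intro hx
      refine ⟨g⁻¹ * x * g, hx, ?_⟩
      show g * (g⁻¹ * x * g) * g⁻¹ = x
      group
  have hK : ∀ x, g⁻¹ * x * g ∈ K ↔ x ∈ K := by
    intro x
    constructor
    · intro hx
      have : x = g * (g⁻¹ * x * g) * g⁻¹ := by group
      rw [this]
      exact K.mul_mem (K.mul_mem hg hx) (K.inv_mem hg)
    · intro hx
      exact K.mul_mem (K.mul_mem (K.inv_mem hg) hx) hg
  have hK' : ∀ x, g * x * g⁻¹ ∈ K ↔ x ∈ K := by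
    intro x
    constructor
    · intro hx
      have : x = g⁻¹ * (g * x * g⁻¹) * g := by group
      rw [this]
      exact K.mul_mem (K.mul_mem (K.inv_mem hg) hx) hg
    · intro hx
      exact K.mul_mem (K.mul_mem hg hx) (K.inv_mem hg)
  obtain ⟨h1, h2⟩ := h
  constructor
  · refine lt_of_le_of_ne inf_le_right ?_
    intro e
    apply h1.ne
    apply le_antisymm inf_le_right
    intro x hx
    refine ⟨?_, hx⟩
    have hx' : g * x * g⁻¹ ∈ K := (hK' x).mpr hx
    rw [← e] at hx'
    have := (hmem H _).mp hx'.1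
    have e2 : g⁻¹ * (g * x * g⁻¹) * g = x := by group
    rwa [e2] at this
  · intro M hM1 hM2
    -- M' = g⁻¹ M g
    let M' : Subgroup G := M.comap (MulAut.conj g).toMonoidHom
    have hM' : ∀ x, x ∈ M' ↔ g * x * g⁻¹ ∈ M := fun x => Iff.rfl
    have a1 : H ⊓ K ≤ M' := by
      intro x hx
      rw [hM']
      apply hM1
      refine ⟨(hmem H _).mpr ?_, (hK' x).mpr hx.2⟩
      have e2 : g⁻¹ * (g * x * g⁻¹) * g = x := by group
      rw [e2]; exact hx.1
    have a2 : M' ≤ K := by
      intro x hx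
      exact (hK' x).mp (hM2 ((hM' x).mp hx))
    rcases h2 M' a1 a2 with e | e
    · left
      apply le_antisymm _ hM1
      intro x hx
      have hx' : g⁻¹ * x * g ∈ M' := by
        rw [hM']
        have e2 : g * (g⁻¹ * x * g) * g⁻¹ = x := by group
        rw [e2]; exact hx
      rw [e] at hx'
      exact ⟨(hmem H x).mpr hx'.1, hM2 hx⟩
    · right
      apply le_antisymm hM2
      intro x hx
      have hx' : g⁻¹ * x * g ∈ M' := by rw [e]; exact (hK x).mpr hx
      rw [hM'] at hx'
      have e2 : g * (g⁻¹ * x * g) * g⁻¹ = x := by group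
      rwa [e2] at hx'

end Cfsg.Agent.Lib.Helper97.SpRow
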